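import Cfsg.Agent.H593.GlaubermanP2
import Cfsg.Agent.H648.Dict
import Cfsg.Agent.Blocks.CliffordCentral
import Cfsg.Agent.Blocks.Fong
import Cfsg.Prelude.Def_BlockRank

/-!
# The Brauer correspondent covers the Glauberman correspondent
-/

set_option autoImplicit false
set_option linter.unusedSectionVars false
set_option linter.unusedVariables false

open Cfsg

namespace Cfsg.Agent.H621.BrauerGlauberman

open Cfsg.Agent.H644 Cfsg.Agent.Blocks.Local Cfsg.Agent.Blocks.ConvCentral
open Cfsg.Agent.Blocks.MinMax (omega omega_def)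
open Cfsg.Agent.H593.GlaubermanP

section Setup

variable {G : Type*} [Group G] (N P H : Subgroup G) [hN : N.Normal]

/-- The embedding of `N ∩ H` into `N`. -/
def iota : N.subgroupOf H →* N where
  toFun x := ⟨((x : H) : G), x.2⟩
  map_one' := rfl
  map_mul' _ _ := rfl

theorem coe_iota (x : N.subgroupOf H) : ((iota N H x : N) : G) = ((x : H) : G) := rfl

/-- `P` acts on `N` by conjugation. -/
@[instance_reducible]
def act : MulDistribMulAction P N where
  smul s g := ⟨(s : G) * g * (s : G)⁻¹, hN.conj_mem g g.2 s⟩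
  one_smul g := Subtype.ext (by
    show ((1 : P) : G) * g * ((1 : P) : G)⁻¹ = g
    rw [OneMemClass.coe_one, one_mul, inv_one, mul_one])
  mul_smul s t g := Subtype.ext (by
    show ((s * t : P) : G) * g * ((s * t : P) : G)⁻¹ = s * (t * g * (t : G)⁻¹) * (s : G)⁻¹
    rw [Subgroup.coe_mul]
    group)
  smul_mul s g h := Subtype.ext (by
    show (s : G) * ((g * h : N) : G) * (s : G)⁻¹ =
      (s * g * (s : G)⁻¹) * (s * h * (s : G)⁻¹)
    rw [Subgroup.coe_mul]
    group)
  smul_one s := Subtype.ext (by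
    show (s : G) * ((1 : N) : G) * (s : G)⁻¹ = ((1 : N) : G)
    rw [OneMemClass.coe_one, mul_one, mul_inv_cancel])

end Setup

theorem setup {G : Type*} [Group G] [Finite G] {p : ℕ} [Fact p.Prime] (N : Subgroup G)
    [hN : N.Normal] [Fintype N] (hpN : ¬ p ∣ Nat.card N) (P : Subgroup G) (hP : IsPGroup p P)
    (H : Subgroup G) (hH : H = Subgroup.normalizer (P : Set G)) [Fintype (N.subgroupOf H)] :
    letI := act N P
    Setup P (iota N H) p := by
  let _ := act N P
  have hcoe : ∀ (s : P) (g : N), ((s • g : N) : G) = (s : G) * g * (s : G)⁻¹ := fun _ _ => rfl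
  refine ⟨fun x y hxy => ?_, fun g => ⟨fun h => ?_, ?_⟩, hP, hpN⟩
  · exact Subtype.ext (Subtype.ext (congrArg (fun z : N => (z : G)) hxy))
  · -- `g` centralizes `P`
    have hgH : (g : G) ∈ H := by
      rw [hH, Subgroup.mem_normalizer_iff]
      intro k
      have h1 : ∀ s : P, (s : G) * g = g * s := fun s =>
        mul_inv_eq_iff_eq_mul.1 (congrArg Subtype.val (h s))
      constructor
      · intro hk
        have h2 := h1 ⟨k, hk⟩
        have h3 : (g : G) * k * (g : G)⁻¹ = k := by
          rw [← h2]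
          exact mul_inv_cancel_right _ _
        rw [h3]
        exact hk
      · intro hk
        have h2 := h1 ⟨_, hk⟩
        have h3 : (g : G) * k * (g : G)⁻¹ = k := by
          simp only at h2
          have h4 : (g : G) * k = g * (g * k * (g : G)⁻¹) := by
            rw [← h2, inv_mul_cancel_right]
          exact (mul_left_cancel h4).symm
        rwa [← h3]
    exact ⟨⟨⟨g, hgH⟩, g.2⟩, Subtype.ext rfl⟩
  · rintro ⟨c, rfl⟩ s
    -- the commutator lies in `N ∩ P = 1`
    apply Subtype.ext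
    rw [hcoe, coe_iota]
    have hcH : ((c : H) : G) ∈ Subgroup.normalizer (P : Set G) := hH ▸ (c : H).2
    set x : G := ((c : H) : G) with hx
    have hxN : x ∈ N := c.2
    set t : G := (s : G) * x * (s : G)⁻¹ * x⁻¹ with ht
    have htN : t ∈ N := N.mul_mem (hN.conj_mem x hxN s) (N.inv_mem hxN)
    have htP : t ∈ P := by
      have h1 : x * (s : G)⁻¹ * x⁻¹ ∈ P := ((Subgroup.mem_normalizer_iff.1 hcH) _).1
        (P.inv_mem s.2)
      have h2 : t = (s : G) * (x * (s : G)⁻¹ * x⁻¹) := by rw [ht]; group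
      rw [h2]
      exact P.mul_mem s.2 h1
    have ht1 : t = 1 := by
      obtain ⟨k, hk⟩ := hP ⟨t, htP⟩
      have hk' : t ^ p ^ k = 1 := congrArg Subtype.val hk
      have h1 : orderOf t ∣ p ^ k := orderOf_dvd_of_pow_eq_one hk'
      have h2 : orderOf t ∣ Nat.card N := by
        have := orderOf_dvd_natCard (⟨t, htN⟩ : N)
        rwa [Subgroup.orderOf_mk] at this
      have h3 : (p ^ k).Coprime (Nat.card N) :=
        Nat.Coprime.pow_left _ (((Fact.out : p.Prime).coprime_iff_not_dvd).2 hpN)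
      exact orderOf_eq_one_iff.1 (Nat.eq_one_of_dvd_coprimes h3 h1 h2)
    exact mul_inv_eq_one.1 ht1

theorem lin_of_supp {G : Type*} [Group G] [Fintype G] (N : Subgroup G) [Fintype N] (χ f : G → ℂ)
    (hf : ∀ g, g ∉ N → f g = 0) : lin χ f = ∑ n : N, f n * χ n := by
  classical
  rw [lin_def]
  have h1 : ∑ n : N, f n * χ n = ∑ g ∈ Finset.univ.filter (· ∈ N), f g * χ g := by
    refine Finset.sum_bij (fun n _ => (n : G)) (fun n _ => ?_) (fun a _ b _ h => Subtype.ext h)
      (fun g hg => ?_) (fun _ _ => rfl)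
    · exact Finset.mem_filter.2 ⟨Finset.mem_univ _, n.2⟩
    · exact ⟨⟨g, (Finset.mem_filter.1 hg).2⟩, Finset.mem_univ _, rfl⟩
  rw [h1]
  symm
  refine Finset.sum_subset (Finset.filter_subset _ _) fun g _ hg => ?_
  rw [hf g fun h => hg (Finset.mem_filter.2 ⟨Finset.mem_univ _, h⟩), zero_mul]

theorem taskC {G : Type*} [Group G] [Fintype G] (p : ℕ) [Fact p.Prime] (M : Ideal AlgInt)
    (hM : IsPModular p M) (N : Subgroup G) [hN : N.Normal] [Fintype N] (hpN : ¬ p ∣ Nat.card N)
    (P : Subgroup G) (hP : IsPGroup p P) (H : Subgroup G)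
    (hH : H = Subgroup.normalizer (P : Set G)) [Fintype (N.subgroupOf H)]
    (θ : IrrCharacter N)
    (hinv : ∀ (g : G) (n : N), (θ : N → ℂ) ⟨g * n * g⁻¹, hN.conj_mem n n.2 g⟩ = (θ : N → ℂ) n)
    (β : IrrCharacter (N.subgroupOf H)) (e : ℕ)
    (he : classInner (fun x : N.subgroupOf H => (θ : N → ℂ) ⟨((x : H) : G), x.2⟩)
      (β : N.subgroupOf H → ℂ) = e) (hpe : ¬ p ∣ e)
    (B : Set (IrrCharacter G)) (c : Set (IrrCharacter H)) (hc : IsInducedBlock M H c B)
    (χ : IrrCharacter G) (hχ : χ ∈ B)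
    (hχθ : classInner (fun x : N => (χ : G → ℂ) x) (θ : N → ℂ) ≠ 0) :
    ∀ η ∈ c, classInner (fun x : N.subgroupOf H => (η : H → ℂ) x) (β : N.subgroupOf H → ℂ) ≠ 0 := by
  classical
  intro η hη
  have hprime := isPrime_of_isPModular hM
  let _ := act N P
  have hset : Setup P (iota N H) p := setup N hpN P hP H hH
  have hFH : Fintype H := Fintype.ofFinite H
  -- the function
  let f : G → ℂ := fun g => if h : g ∈ N then idem θ ⟨g, h⟩ else 0
  have hfN : ∀ n : N, f n = idem θ n := fun n => dif_pos n.2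
  have hf0 : ∀ g, g ∉ N → f g = 0 := fun g hg => dif_neg hg
  have hF : ∀ (g : G) (n : N), idem θ ⟨g * n * g⁻¹, hN.conj_mem n n.2 g⟩ = idem θ n := by
    intro g n
    rw [idem_apply, idem_apply, hinv]
  have hf : IsClassFunction G f := by
    intro g k
    by_cases hg : g ∈ N
    · have h1 := hF k ⟨g, hg⟩
      rw [← hfN, ← hfN] at h1
      exact h1
    · rw [hf0 g hg, hf0]
      intro h
      apply hg
      have := hN.conj_mem _ h k⁻¹
      have h2 : k⁻¹ * (k * g * k⁻¹) * k⁻¹⁻¹ = g := by group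
      rwa [h2] at this
  have hfR : ∀ g, MemLocalRing M (f g) := by
    intro g
    by_cases hg : g ∈ N
    · have h1 := idem_mem hM hpN θ ⟨g, hg⟩
      rw [← hfN] at h1
      exact h1
    · rw [hf0 g hg]
      exact memLocalRing_zero
  -- the value of `χ`
  have h1 : omega (χ : G → ℂ) f = 1 := by
    rw [omega_def, lin_of_supp N _ f hf0]
    have h2 := Cfsg.Agent.Blocks.CliffordCentral.sum_div_eq_of_constituent N χ θ hχθ
      (fun n => f n) (fun g n => by
        show f (g * n * g⁻¹) = f n
        exact hf n g)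
    rw [h2]
    have h3 : ∑ n : N, f n * (θ : N → ℂ) n = lin (θ : N → ℂ) (idem θ) := by
      rw [lin_def]
      exact Finset.sum_congr rfl fun n _ => by rw [hfN]
    rw [h3, lin_idem, if_pos rfl, div_self (irr_one_ne_zero θ.2)]
  -- the value of `η`
  let f' : H → ℂ := fun h => f h
  have hf' : IsClassFunction H f' := fun g k => hf g k
  have hfR' : ∀ h, MemLocalRing M (f' h) := fun h => hfR h
  have hres : res H (toK M f) = toK M f' := by
    refine ext_coeff fun h => ?_
    rw [coeff_res, coeff_toK, coeff_toK]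
  have h2 := (Cfsg.Agent.H648.Dict.isInducedBlock_iff.1 hc).2.2 η hη χ hχ (toK M f) (isCls_toK hf)
  rw [hres, lam_toK η.2 hf' hfR', lam_toK χ.2 hf hfR, h1] at h2
  have hC : (N.subgroupOf H).Normal := inferInstance
  obtain ⟨β', hβ'⟩ := Cfsg.Agent.Blocks.Fong.exists_constituent (N.subgroupOf H) η
  have h3 : omega (η : H → ℂ) f' = b (iota N H) θ β' := by
    rw [omega_def, lin_of_supp (N.subgroupOf H) _ f' (fun g hg => hf0 g hg)]
    have h4 := Cfsg.Agent.Blocks.CliffordCentral.sum_div_eq_of_constituent (N.subgroupOf H) η β' hβ'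
      (fun n => f' n) (fun g n => by
        show f' (g * n * g⁻¹) = f' n
        exact hf' n g)
    rw [h4, b_def, lin_def]
    congr 1
    refine Finset.sum_congr rfl fun n _ => ?_
    congr 1
    exact hfN (iota N H n)
  have hgood' : ¬ MemLocalIdeal M (b (iota N H) θ β') := by
    intro h5
    rw [h3, redC_eq_iff (b_mem hset hM θ β') memLocalRing_one] at h2
    have h6 := memLocalIdeal_sub h5 h2
    rw [sub_sub_cancel] at h6
    exact not_memLocalIdeal_one h6
  have hgood : ¬ MemLocalIdeal M (b (iota N H) θ β) := fun h =>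
    hpe ((good_iff hset hM (χ := θ) (β := β) (m := e) he).1 h)
  have hinv' : Inv P (θ : N → ℂ) := fun s n => hinv s n
  have hbb := unique_beta hset hM hinv' hgood hgood'
  rw [hbb]
  exact hβ'

end Cfsg.Agent.H621.BrauerGlauberman
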