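import Cfsg.Prelude.Def_Local
import Cfsg.Agent.Lib.HallHigman
import Cfsg.Agent.Lib.PSolvable

set_option autoImplicit false
open Cfsg

namespace Cfsg.Agent.H621.PSolvAb

open Cfsg.Agent.Lib.HallHigman

/-- A `p`-solvable group with abelian Sylow `p`-subgroup `P`: `O_{p'}(G) P` is normal,
`G = O_{p'}(G) N_G(P)` and `O_{p'}(N_G(P)) = O_{p'}(G) ∩ N_G(P)`. -/
theorem taskF {G : Type*} [Group G] [Finite G] (p : ℕ) [Fact p.Prime] (hsolv : IsPSolvable p G)
    (P : Sylow p G) (hPab : ∀ x ∈ P, ∀ y ∈ P, x * y = y * x) :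
    (pPrimeCore p G ⊔ (P : Subgroup G)).Normal ∧
    pPrimeCore p G ⊔ Subgroup.normalizer ((P : Subgroup G) : Set G) = ⊤ ∧
    pPrimeCore p (Subgroup.normalizer ((P : Subgroup G) : Set G)) =
      (pPrimeCore p G).subgroupOf (Subgroup.normalizer ((P : Subgroup G) : Set G)) := by
  have hKn : (pPrimeCore p G).Normal := Cfsg.Agent.Lib.HallHigman.pPrimeCore_normal p
  have hKc : (Nat.card (pPrimeCore p G)).Coprime p := pPrimeCore_coprime p
  have hcent : Subgroup.centralizer (Cfsg.pCore p (G ⧸ pPrimeCore p G) : Set (G ⧸ pPrimeCore p G)) ≤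
      Cfsg.pCore p (G ⧸ pPrimeCore p G) := by
    apply Cfsg.Agent.Lib.PSolvable.centralizer_pCore_le_of_pSolvable p
    · exact Cfsg.Agent.Lib.PSolvable.IsPSolvable_of_surjective p hsolv
        (QuotientGroup.mk' (pPrimeCore p G)) (QuotientGroup.mk'_surjective _)
    · exact pPrimeCore_quotient_eq_bot p _ rfl
  have h1 : (pPrimeCore p G ⊔ (P : Subgroup G)).Normal := by
    rw [sup_comm]
    refine sylow_sup_normal_of_centralizer_le p P ?_ _ hcent
    exact ⟨⟨fun a b => Subtype.ext (hPab a a.2 b b.2)⟩⟩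
  refine ⟨h1, ?_, ?_⟩
  · have h2 := Sylow.normalizer_sup_eq_top' (N := pPrimeCore p G ⊔ (P : Subgroup G)) P le_sup_right
    rw [eq_top_iff, ← h2]
    refine sup_le le_sup_right (sup_le le_sup_left (le_trans ?_ le_sup_right))
    exact Subgroup.le_normalizer
  · set N := Subgroup.normalizer ((P : Subgroup G) : Set G) with hN
    have hPN : (P : Subgroup G) ≤ N := Subgroup.le_normalizer
    have hXn : (pPrimeCore p N).Normal := Cfsg.Agent.Lib.HallHigman.pPrimeCore_normal p
    have hXc : (Nat.card (pPrimeCore p N)).Coprime p := pPrimeCore_coprime p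
    apply le_antisymm
    · intro x hx
      rw [Subgroup.mem_subgroupOf]
      -- `x` centralizes `P`
      have hxP : ∀ y ∈ (P : Subgroup G), y * (x : G) = (x : G) * y := by
        intro y hy
        have hyN : y ∈ N := hPN hy
        -- commutator
        have hc1 : x * ⟨y, hyN⟩ * x⁻¹ * (⟨y, hyN⟩ : N)⁻¹ ∈ pPrimeCore p N := by
          have := hXn.conj_mem x⁻¹ (inv_mem hx) ⟨y, hyN⟩
          have h3 := mul_mem hx this
          convert h3 using 1
          group
        have hc2 : (x : G) * y * (x : G)⁻¹ * y⁻¹ ∈ (P : Subgroup G) := by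
          refine mul_mem ?_ (inv_mem hy)
          have := (Subgroup.mem_normalizer_iff.mp x.2 y).mp hy
          exact this
        have ho1 : orderOf ((x : G) * y * (x : G)⁻¹ * y⁻¹) ∣ Nat.card (pPrimeCore p N) := by
          have h4 : orderOf (x * ⟨y, hyN⟩ * x⁻¹ * (⟨y, hyN⟩ : N)⁻¹) ∣ Nat.card (pPrimeCore p N) :=
            Subgroup.orderOf_dvd_natCard _ hc1
          rwa [← Subgroup.orderOf_coe] at h4
        have ho2 : orderOf ((x : G) * y * (x : G)⁻¹ * y⁻¹) ∣ Nat.card (P : Subgroup G) :=
          Subgroup.orderOf_dvd_natCard _ hc2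
        obtain ⟨k, hk⟩ := (IsPGroup.iff_card).mp P.isPGroup'
        have h5 := Nat.eq_one_of_dvd_coprimes (a := Nat.card (pPrimeCore p N))
          (b := Nat.card (P : Subgroup G)) (by rw [hk]; exact Nat.Coprime.pow_right k hXc) ho1 ho2
        have h6 := orderOf_eq_one_iff.mp h5
        have h7 : (x : G) * y = y * (x : G) := by
          have := congrArg (· * (y * (x : G))) h6
          simpa [mul_assoc] using this
        exact h7.symm
      have hbar : QuotientGroup.mk' (pPrimeCore p G) (x : G) ∈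
          Cfsg.pCore p (G ⧸ pPrimeCore p G) := by
        apply hcent
        rw [Subgroup.mem_centralizer_iff]
        intro z hz
        have hf : Function.Surjective (QuotientGroup.mk' (pPrimeCore p G)) :=
          QuotientGroup.mk'_surjective _
        let R : Sylow p (G ⧸ pPrimeCore p G) := P.mapSurjective hf
        have hR : (R : Subgroup (G ⧸ pPrimeCore p G)) =
            (P : Subgroup G).map (QuotientGroup.mk' (pPrimeCore p G)) := P.coe_mapSurjective hf
        have hz' : z ∈ (R : Subgroup (G ⧸ pPrimeCore p G)) := pCore_le_sylow p R hz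
        rw [hR] at hz'
        obtain ⟨b, hb, rfl⟩ := hz'
        rw [← map_mul, ← map_mul, hxP b hb]
      have hp : IsPGroup p (Cfsg.pCore p (G ⧸ pPrimeCore p G)) := pCore_isPGroup p
      obtain ⟨k, hk⟩ := (IsPGroup.iff_card).mp hp
      have ho1 : orderOf (QuotientGroup.mk' (pPrimeCore p G) (x : G)) ∣ p ^ k := by
        rw [← hk]; exact Subgroup.orderOf_dvd_natCard _ hbar
      have ho2 : orderOf (QuotientGroup.mk' (pPrimeCore p G) (x : G)) ∣ Nat.card (pPrimeCore p N) := by
        refine (orderOf_map_dvd _ _).trans ?_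
        rw [Subgroup.orderOf_coe]
        exact Subgroup.orderOf_dvd_natCard _ hx
      have h5 := Nat.eq_one_of_dvd_coprimes (Nat.Coprime.pow_right k hXc) ho2 ho1
      have h6 := orderOf_eq_one_iff.mp h5
      exact (QuotientGroup.eq_one_iff _).mp h6
    · apply le_pPrimeCore (hKn.comap _)
      refine Nat.Coprime.coprime_dvd_left ?_ hKc
      exact Subgroup.card_comap_dvd_of_injective _ _ N.subtype_injective

end Cfsg.Agent.H621.PSolvAb
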